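import Cfsg.Agent.FGS2.Co2.PointsDefs

/-! The table is checked, part 1. -/

set_option autoImplicit false
set_option maxRecDepth 100000

namespace Cfsg.Agent.FGS2.Co2

theorem points1a : pointsOK 575 115 = true := by decide +kernel

theorem points1b : pointsOK 690 115 = true := by decide +kernel

theorem points1c : pointsOK 805 115 = true := by decide +kernel

theorem points1d : pointsOK 920 115 = true := by decide +kernel

theorem points1e : pointsOK 1035 115 = true := by decide +kernel

end Cfsg.Agent.FGS2.Co2
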