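import Cfsg.Agent.FGS2.Co2.PointsDefs

/-! The table is checked, part 2. -/

set_option autoImplicit false
set_option maxRecDepth 100000

namespace Cfsg.Agent.FGS2.Co2

theorem points2a : pointsOK 1150 115 = true := by decide +kernel

theorem points2b : pointsOK 1265 115 = true := by decide +kernel

theorem points2c : pointsOK 1380 115 = true := by decide +kernel

theorem points2d : pointsOK 1495 115 = true := by decide +kernel

theorem points2e : pointsOK 1610 115 = true := by decide +kernel

end Cfsg.Agent.FGS2.Co2
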