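import Cfsg.Agent.FGS2.Co2.PointsDefs

/-! The table is checked, part 3. -/

set_option autoImplicit false
set_option maxRecDepth 100000

namespace Cfsg.Agent.FGS2.Co2

theorem points3a : pointsOK 1725 115 = true := by decide +kernel

theorem points3b : pointsOK 1840 115 = true := by decide +kernel

theorem points3c : pointsOK 1955 115 = true := by decide +kernel

theorem points3d : pointsOK 2070 115 = true := by decide +kernel

theorem points3e : pointsOK 2185 115 = true := by decide +kernel

end Cfsg.Agent.FGS2.Co2
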