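import Cfsg.Agent.FGS2.Co2.PointsCheck0
import Cfsg.Agent.FGS2.Co2.PointsCheck1
import Cfsg.Agent.FGS2.Co2.PointsCheck2
import Cfsg.Agent.FGS2.Co2.PointsCheck3
import Cfsg.Agent.Golay.LeechCo3Rank
import Cfsg.Agent.Screen.CosetEnum.Orbit
import Cfsg.Prelude.Def_Spor_Conway

/-!
Eight generators of the second Conway group and their action on 2300 pairs of minimal vectors, by a checked table.
-/

set_option autoImplicit false
set_option maxRecDepth 100000

namespace Cfsg.Agent.FGS2.Co2

open Cfsg.Agent.Golay
open scoped Pointwise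

/-- The second Conway group. -/
abbrev Q : Type := ↥Cfsg.Spor.Co2

theorem vecU_eq : Cfsg.Spor.vecU = uVec := by
  funext i
  revert i
  decide +kernel

theorem leechU_eq : Cfsg.Spor.leechU = hsX := Subtype.ext vecU_eq

theorem gens_check : ((List.range 4).all fun j => (cOps.getD j []).all fun op => orthOK [op.2]) = true := by
  decide +kernel

theorem exists_gen (j : ℕ) (hj : j < 4) : ∃ g : Q, ∀ v : ↥leechLattice,
    matl (((g : Equiv.Perm ↥leechLattice) v : ↥leechLattice) : GolayPt → ℤ) =
      wordList (cOps.getD j []) (matl v) := by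
  obtain ⟨g, hX, hg⟩ := word_elem (cOps.getD j []) (List.all_eq_true.1 gens_check j (List.mem_range.2 hj))
  refine ⟨⟨(g : Equiv.Perm ↥leechLattice), g.2, ?_⟩, fun v => ?_⟩
  · show g • Cfsg.Spor.leechU = Cfsg.Spor.leechU
    rw [leechU_eq]; exact hX
  rw [wordList_matl, ← hg v]
  rfl

/-- The first four letters. -/
noncomputable def gen4 (j : ℕ) : Q := if h : j < 4 then (exists_gen j h).choose else 1

/-- The eight letters. -/
noncomputable def gen (x : ℕ) : Q := if x < 4 then gen4 x else (gen4 (x - 4))⁻¹

theorem pointOK_all (c : ℕ) (hc : c < 2300) : pointOK c = true := by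
  have key : ∀ lo, pointsOK lo 115 = true → lo ≤ c → c < lo + 115 → pointOK c = true := fun lo h h1 h2 => by
    have := List.all_eq_true.1 h (c - lo) (List.mem_range.2 (by omega))
    rwa [Nat.add_sub_cancel' h1] at this
  by_cases h0 : c < 115
  · exact key 0 points0a (by omega) (by omega)
  by_cases h1 : c < 230
  · exact key 115 points0b (by omega) (by omega)
  by_cases h2 : c < 345
  · exact key 230 points0c (by omega) (by omega)
  by_cases h3 : c < 460
  · exact key 345 points0d (by omega) (by omega)
  by_cases h4 : c < 575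
  · exact key 460 points0e (by omega) (by omega)
  by_cases h5 : c < 690
  · exact key 575 points1a (by omega) (by omega)
  by_cases h6 : c < 805
  · exact key 690 points1b (by omega) (by omega)
  by_cases h7 : c < 920
  · exact key 805 points1c (by omega) (by omega)
  by_cases h8 : c < 1035
  · exact key 920 points1d (by omega) (by omega)
  by_cases h9 : c < 1150
  · exact key 1035 points1e (by omega) (by omega)
  by_cases h10 : c < 1265
  · exact key 1150 points2a (by omega) (by omega)
  by_cases h11 : c < 1380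
  · exact key 1265 points2b (by omega) (by omega)
  by_cases h12 : c < 1495
  · exact key 1380 points2c (by omega) (by omega)
  by_cases h13 : c < 1610
  · exact key 1495 points2d (by omega) (by omega)
  by_cases h14 : c < 1725
  · exact key 1610 points2e (by omega) (by omega)
  by_cases h15 : c < 1840
  · exact key 1725 points3a (by omega) (by omega)
  by_cases h16 : c < 1955
  · exact key 1840 points3b (by omega) (by omega)
  by_cases h17 : c < 2070
  · exact key 1955 points3c (by omega) (by omega)
  by_cases h18 : c < 2185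
  · exact key 2070 points3d (by omega) (by omega)
  exact key 2185 points3e (by omega) (by omega)

theorem point_facts {c : ℕ} (hc : c < 2300) : ptCodeB c < 2 ^ 96 ∧ ptCode c < ptCodeB c ∧
    (c = 0 ∨ ptCode (c - 1) < ptCode c) ∧ numVec (ptCode c) ∈ leechLattice ∧
    matl (numVec (ptCodeB c)) = matl (fun i => uVec i - numVec (ptCode c) i) ∧
    ∀ j < 4, img c j < 2300 ∧ img c (j + 4) < 2300 ∧ img (img c (j + 4)) j = c ∧ img (img c j) (j + 4) = c ∧
      (wordList (cOps.getD j []) (matl (numVec (ptCode c))) = matl (numVec (ptCode (img c j))) ∨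
        wordList (cOps.getD j []) (matl (numVec (ptCode c))) = matl (numVec (ptCodeB (img c j)))) := by
  have h := pointOK_all c hc
  simp only [pointOK, Bool.and_eq_true, Bool.or_eq_true, Nat.blt_eq, beq_iff_eq] at h
  obtain ⟨⟨⟨⟨⟨h1, h2⟩, h3⟩, h4⟩, h5⟩, h6⟩ := h
  refine ⟨h1, h2, h3.imp Nat.eq_of_beq_eq_true id, leechTest_sound h4, h5, fun j hj => ?_⟩
  have h7 := List.all_eq_true.1 h6 j (List.mem_range.2 hj)
  simp only [Bool.and_eq_true, Bool.or_eq_true, Nat.blt_eq, beq_iff_eq] at h7
  exact ⟨h7.1.1.1.1, h7.1.1.1.2, Nat.eq_of_beq_eq_true h7.1.1.2, Nat.eq_of_beq_eq_true h7.1.2, h7.2⟩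

/-- The first vector of a point. -/
def vecA (c : Fin 2300) : ↥leechLattice := ⟨numVec (ptCode c), (point_facts c.isLt).2.2.2.1⟩

theorem vecB_eq (c : Fin 2300) : numVec (ptCodeB c) = fun i => uVec i - numVec (ptCode c) i := by
  have := congrArg listVec (point_facts c.isLt).2.2.2.2.1
  rwa [listVec_matl, listVec_matl] at this

/-- The pair of a point. -/
def pair (c : Fin 2300) : Set ↥leechLattice := {vecA c, hsX - vecA c}

theorem mono : ∀ j, j < 2300 → ∀ i < j, ptCode i < ptCode j := by
  intro j
  induction j with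
  | zero => intro _ i hi; omega
  | succ j ih =>
    intro hj i hi
    have h1 : ptCode j < ptCode (j + 1) := by
      rcases (point_facts hj).2.2.1 with e | e
      · omega
      · simpa using e
    rcases Nat.lt_or_ge i j with h2 | h2
    · exact (ih (by omega) i h2).trans h1
    · obtain rfl : i = j := by omega
      exact h1

theorem pair_inj : Function.Injective pair := by
  intro a b h
  have hA : ∀ c : Fin 2300, ptCode c < 2 ^ 96 := fun c =>
    (point_facts c.isLt).2.1.trans (point_facts c.isLt).1
  have code : ∀ c : Fin 2300, ((hsX - vecA c : ↥leechLattice) : GolayPt → ℤ) = numVec (ptCodeB c) := fun c => by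
    rw [vecB_eq c]; rfl
  have ha : vecA a ∈ pair b := h ▸ Set.mem_insert _ _
  have hb : vecA b ∈ pair a := h.symm ▸ Set.mem_insert _ _
  have inj : ptCode a = ptCode b → a = b := fun e => by
    rcases lt_trichotomy (a : ℕ) b with q | q | q
    · exact absurd e (mono b b.isLt a q).ne
    · exact Fin.ext q
    · exact absurd e.symm (mono a a.isLt b q).ne
  rcases ha with ha | ha
  · exact inj (Co3Rank.numVec_inj (hA a) (hA b) (congrArg Subtype.val ha))
  rcases hb with hb | hb
  · exact (inj (Co3Rank.numVec_inj (hA a) (hA b) (congrArg Subtype.val hb).symm))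
  exfalso
  have e1 := Co3Rank.numVec_inj (hA a) (point_facts b.isLt).1 ((congrArg Subtype.val ha).trans (code b))
  have e2 := Co3Rank.numVec_inj (hA b) (point_facts a.isLt).1 ((congrArg Subtype.val hb).trans (code a))
  have := (point_facts a.isLt).2.1
  have := (point_facts b.isLt).2.1
  omega

theorem gen4_fix (j : ℕ) : (gen4 j : Equiv.Perm ↥leechLattice) hsX = hsX := by
  rw [← leechU_eq]; exact (gen4 j).2.2

theorem gen4_sub (g : Q) (a b : ↥leechLattice) : (g : Equiv.Perm ↥leechLattice) (a - b) =
    (g : Equiv.Perm ↥leechLattice) a - (g : Equiv.Perm ↥leechLattice) b :=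
  eq_sub_of_add_eq (by rw [← g.2.1.1, sub_add_cancel])

theorem gen_pair {x : ℕ} (hx : x < 8) (c : Fin 2300) : ∃ d : Fin 2300, (d : ℕ) = img c x ∧
    (gen x : Equiv.Perm ↥leechLattice) '' pair c = pair d := by
  have key : ∀ j, (hj : j < 4) → ∀ c : Fin 2300, (gen4 j : Equiv.Perm ↥leechLattice) '' pair c =
      pair ⟨img c j, ((point_facts c.isLt).2.2.2.2.2 j hj).1⟩ := by
    intro j hj c
    have hval : matl (((gen4 j : Equiv.Perm ↥leechLattice) (vecA c) : ↥leechLattice) : GolayPt → ℤ) =
        wordList (cOps.getD j []) (matl (numVec (ptCode c))) := by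
      rw [gen4, dif_pos hj]; exact (exists_gen j hj).choose_spec (vecA c)
    set d : Fin 2300 := ⟨img c j, ((point_facts c.isLt).2.2.2.2.2 j hj).1⟩
    rw [pair, Set.image_insert_eq, Set.image_singleton, gen4_sub, gen4_fix]
    rcases ((point_facts c.isLt).2.2.2.2.2 j hj).2.2.2.2 with h | h
    · have e : (gen4 j : Equiv.Perm ↥leechLattice) (vecA c) = vecA d := Subtype.ext (by
        have := congrArg listVec (hval.trans h)
        rwa [listVec_matl, listVec_matl] at this)
      rw [e]; rfl
    · have e : (gen4 j : Equiv.Perm ↥leechLattice) (vecA c) = hsX - vecA d := Subtype.ext (by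
        have := congrArg listVec (hval.trans h)
        rw [listVec_matl, listVec_matl] at this
        exact this.trans (vecB_eq d))
      rw [e, sub_sub_cancel, pair, Set.pair_comm]
  by_cases h4 : x < 4
  · exact ⟨⟨img c x, ((point_facts c.isLt).2.2.2.2.2 x h4).1⟩, rfl, by rw [gen, if_pos h4]; exact key x h4 c⟩
  · obtain ⟨j, rfl⟩ : ∃ j, x = j + 4 := ⟨x - 4, by omega⟩
    have hj : j < 4 := by omega
    obtain ⟨-, h2, h3, -, -⟩ := (point_facts c.isLt).2.2.2.2.2 j hj
    refine ⟨⟨img c (j + 4), h2⟩, rfl, ?_⟩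
    have hk := key j hj ⟨img c (j + 4), h2⟩
    rw [show (⟨img (img c (j + 4)) j, _⟩ : Fin 2300) = c from Fin.ext h3] at hk
    rw [gen, if_neg h4, Nat.add_sub_cancel, ← hk, Set.image_image]
    simp

/-- All letters are generators. -/
def lOK (w : List ℕ) : Bool := w.all fun x => Nat.blt x 8

/-- A word on a point. -/
def act : List ℕ → ℕ → ℕ
  | [], c => c
  | x :: w, c => Cfsg.Agent.Screen.CosetEnum.force (act w c) fun d => img d x

/-- The element of a word. -/
noncomputable def kE (w : List ℕ) : Q := (w.map gen).prod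

theorem kE_nil : kE [] = 1 := rfl

theorem kE_append (u w : List ℕ) : kE (u ++ w) = kE u * kE w := by
  rw [kE, List.map_append, List.prod_append, kE, kE]

theorem kE_rep (w : List ℕ) : ∀ i : ℕ, kE (List.replicate i w).flatten = kE w ^ i
  | 0 => by rw [pow_zero]; exact kE_nil
  | i + 1 => by rw [List.replicate_succ, List.flatten_cons, kE_append, kE_rep w i, pow_succ']

theorem act_spec : ∀ {w : List ℕ}, lOK w = true → ∀ c : Fin 2300, ∃ d : Fin 2300, (d : ℕ) = act w c ∧
    (kE w : Equiv.Perm ↥leechLattice) '' pair c = pair d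
  | [], _, c => ⟨c, rfl, by simp [kE_nil]⟩
  | x :: w, h, c => by
    simp only [lOK, List.all_cons, Bool.and_eq_true, Nat.blt_eq] at h
    obtain ⟨d, hd, hdc⟩ := act_spec (w := w) h.2 c
    obtain ⟨d', hd', hdc'⟩ := gen_pair h.1 d
    refine ⟨d', ?_, ?_⟩
    · rw [act, Cfsg.Agent.Screen.CosetEnum.force_eq, ← hd]; exact hd'
    · rw [show kE (x :: w) = gen x * kE w from rfl, Subgroup.coe_mul, Equiv.Perm.coe_mul, Set.image_comp, hdc, hdc']

theorem card_Co2 : Nat.card Q = 42305421312000 := by
  rw [← stab32_card (v := Cfsg.Spor.leechU) (by decide +kernel)]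
  refine Nat.card_congr ⟨fun g => ⟨⟨g.1, g.2.1⟩, g.2.2⟩, fun g => ⟨g.1.1, g.1.2, g.2⟩, fun g => rfl, fun g => rfl⟩

end Cfsg.Agent.FGS2.Co2
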