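import Cfsg.Agent.FGS2.Co2.PointsDefs

/-! The table is checked, part 0. -/

set_option autoImplicit false
set_option maxRecDepth 100000

namespace Cfsg.Agent.FGS2.Co2

theorem points0a : pointsOK 0 115 = true := by decide +kernel

theorem points0b : pointsOK 115 115 = true := by decide +kernel

theorem points0c : pointsOK 230 115 = true := by decide +kernel

theorem points0d : pointsOK 345 115 = true := by decide +kernel

theorem points0e : pointsOK 460 115 = true := by decide +kernel

end Cfsg.Agent.FGS2.Co2
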