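import Cfsg.Agent.FGS2.Co2.Points
import Cfsg.Agent.Golay.LeechMcL

/-! The checks of the table of the action on 2300 pairs of minimal vectors. -/

set_option autoImplicit false
set_option maxRecDepth 100000

namespace Cfsg.Agent.FGS2.Co2

open Cfsg.Agent.Golay

/-- The packed first vector of a point. -/
def ptCode (c : ℕ) : ℕ := ptTree.get c

/-- The packed second vector of a point. -/
def ptCodeB (c : ℕ) : ℕ := ptTreeB.get c

/-- The image of a point under a letter. -/
def img (c x : ℕ) : ℕ := Nat.land (Nat.shiftRight (rowTree.get c) (12 * x)) 4095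

/-- The checks at one point. -/
def pointOK (c : ℕ) : Bool :=
  (ptCodeB c).blt (2 ^ 96) && (ptCode c).blt (ptCodeB c) && (Nat.beq c 0 || (ptCode (c - 1)).blt (ptCode c)) &&
    leechTest (numVec (ptCode c)) &&
    matl (numVec (ptCodeB c)) == matl (fun i => uVec i - numVec (ptCode c) i) &&
    (List.range 4).all fun j => Nat.blt (img c j) 2300 && Nat.blt (img c (j + 4)) 2300 &&
      Nat.beq (img (img c (j + 4)) j) c && Nat.beq (img (img c j) (j + 4)) c &&
      (let y := wordList (cOps.getD j []) (matl (numVec (ptCode c)))
       y == matl (numVec (ptCode (img c j))) || y == matl (numVec (ptCodeB (img c j))))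

/-- A block of points. -/
def pointsOK (lo n : ℕ) : Bool := (List.range n).all fun k => pointOK (lo + k)

end Cfsg.Agent.FGS2.Co2
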